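import Cfsg.Agent.R3.Ru.B
import Cfsg.Agent.R3.Ru.C
import Cfsg.Agent.R3.Ru.D
import Cfsg.Agent.Comp.F42.Iso

set_option autoImplicit false
set_option maxRecDepth 100000

namespace Cfsg.Agent.R3.Ru
open Cfsg.Agent.Comp Cfsg.Agent.Schur Cfsg.Agent.R3 Cfsg

theorem iso : Nonempty (H ≃* Lie.twistedF4 (ZMod 2) 1) ∧ Nat.card H = 35942400 := by
  have := F42.card.1
  have c : Nat.card (genW Comp.Ru.s Comp.Ru.W0) = 35942400 :=
    card_eq_of_index (n := 4060) Comp.Ru.card.2.1 Comp.Ru.stab.1 (by norm_num)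
  obtain ⟨e, -⟩ := F42.pres.equiv_gen F42.hR Comp.Ru.s (Comp.Ru.pres.sat.mono (by decide +kernel))
    (F42.card.2.1.trans c.symm).le
  have e2 : genW Comp.Ru.s Comp.Ru.W0 ≃* H := ((genW Comp.Ru.s Comp.Ru.W0).equivMapOfInjective _ Comp.Ru.card.2.2).trans
    (MulEquiv.subgroupCongr (Comp.Ru.rep.map_genW (by decide +kernel)))
  exact ⟨⟨(e.trans e2).symm.trans F42.iso⟩, (Nat.card_congr e2.toEquiv).symm.trans c⟩

theorem core {Ω : Type*} [Fintype Ω] (E : SimpleGraph Ω) [DecidableRel E.Adj] [MulAction H Ω] (a : Ω)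
    (la mu : ℕ) (A : Abs E H a 1755 2304 la mu) : ∃ ι : Ω ↪ ℕ, (∀ x, ι x < 4060) ∧ (∀ i < 4060, ∃ x, ι x = i) ∧
      ∀ x y, E.Adj x y ↔ adj0 Comp.Ru.phi.range 4060 D0 (ι x) (ι y) := by
  obtain ⟨b, hb, hs⟩ := step1 A m1 (by decide +kernel) (v := 12) Nat.prime_two (iso.2.trans (by norm_num))
    (by norm_num) (by norm_num) eqQ (by decide +kernel) fixQ at1
  obtain ⟨rfl, f, L, z, hz, c, h1, h2⟩ := steps A m1 hb (hs.resolve_right fun h => h.1 rfl) fixd at3 lam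
    (by norm_num) quad Nat.prime_five (by norm_num) eqP (by decide +kernel) cons
    (dp_congr tree (by decide +kernel)) sol (good := [Z]) (by decide +kernel) bad
  rw [List.mem_singleton.mp hz] at h2
  exact step6 top A L (by norm_num) (by decide +kernel) h1 h2 (by norm_num) good fixq at6

theorem recog {Ω : Type*} [Fintype Ω] [DecidableEq Ω] (hΩ : Fintype.card Ω = 4060)
    (Γ : Subgroup (Equiv.Perm Ω)) [MulAction.IsPretransitive Γ Ω] (a : Ω)
    (e : MulAction.stabilizer Γ a ≃* Lie.twistedF4 (ZMod 2) 1) (b c : Ω)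
    (hb : (MulAction.orbit (MulAction.stabilizer Γ a) b).ncard = 1755)
    (hc : (MulAction.orbit (MulAction.stabilizer Γ a) c).ncard = 2304) : Nonempty (Γ ≃* Comp.Ru.G) := by
  have := Comp.Ru.simple
  have e0 := MonoidHom.ofInjective Comp.Ru.card.2.2
  have := e0.symm.isSimpleGroup
  obtain ⟨⟨e1⟩, c1⟩ := iso
  obtain ⟨e2⟩ := glue top aut (r := 29) (by norm_num) (Comp.Ru.cardR.trans (by norm_num)) c1 (by norm_num) core
    hΩ Γ a (e1.trans e.symm) b c hb hc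
  exact ⟨e2.trans e0.symm⟩

end Cfsg.Agent.R3.Ru
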